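import Cfsg.Agent.Lib.Co3Out.Count
import Cfsg.Agent.Lib.Golay.OutM24
import Cfsg.Agent.Lib.M22Sub.Big
import Cfsg.Agent.Lib.M22Sub.Fix
import Cfsg.Agent.Lib.QuatSyl

/-!
The subgroup PSL(2,23) of the group of the length-24 code and its Borel subgroup.
-/

set_option autoImplicit false

namespace Cfsg.Agent.Lib.L23

open Cfsg Finset
open Cfsg.Agent.Lib.Golay Cfsg.Agent.Lib
open scoped Pointwise

/-- order 253 -/
noncomputable def BB : Subgroup (Equiv.Perm GolayPt) := Subgroup.closure {pm cT, pm cU}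

/-- order 6072 -/
noncomputable def LL : Subgroup (Equiv.Perm GolayPt) := Subgroup.closure {pm cT, pm cU, pm cS}

noncomputable def ZT : Subgroup (Equiv.Perm GolayPt) := Subgroup.zpowers (pm cT)

noncomputable def N0 : Subgroup (Equiv.Perm GolayPt) := M24 ⊓ Subgroup.normalizer (ZT : Set (Equiv.Perm GolayPt))

theorem card_sub_norm {F : Subgroup (Equiv.Perm GolayPt)} (hT : pm cT ∈ F) :
    Nat.card (Subgroup.normalizer ((Subgroup.zpowers (⟨pm cT, hT⟩ : F) : Subgroup F) : Set F)) =
      Nat.card ↥(F ⊓ Subgroup.normalizer (ZT : Set (Equiv.Perm GolayPt))) := by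
  have hle : ZT ≤ F := by rw [ZT, Subgroup.zpowers_le]; exact hT
  have e1 : (Subgroup.zpowers (⟨pm cT, hT⟩ : F)) = ZT.subgroupOf F := by
    ext x
    rw [Subgroup.mem_subgroupOf, ZT]
    constructor
    · rintro ⟨k, rfl⟩; exact ⟨k, by simp⟩
    · rintro ⟨k, hk⟩; exact ⟨k, Subtype.ext (by simpa using hk)⟩
  rw [e1, ← Subgroup.subgroupOf_normalizer_eq hle, ← Subgroup.card_map_of_injective (K := _) (Subgroup.subtype_injective F),
    Subgroup.subgroupOf_map_subtype, inf_comm]

theorem card_N0 : Nat.card N0 = 253 := by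
  unfold N0
  rw [← card_sub_norm mem_M24_T, card_normalizer_zpowers M24 mem_M24_T (by norm_num) orderOf_T, card_norm_T]

theorem mem_norm_of_rel {g : Equiv.Perm GolayPt} {k : ℕ} (h : g * pm cT = pm cT ^ k * g) :
    g ∈ Subgroup.normalizer (ZT : Set (Equiv.Perm GolayPt)) := by
  have hmap : ZT.map (MulAut.conj g).toMonoidHom ≤ ZT := by
    unfold ZT
    rw [MonoidHom.map_zpowers, Subgroup.zpowers_le]
    have : (MulAut.conj g).toMonoidHom (pm cT) = pm cT ^ k := by
      show g * pm cT * g⁻¹ = _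
      rw [h]; group
    rw [this]; exact Subgroup.npow_mem_zpowers _ _
  have hc : ∀ x ∈ ZT, g * x * g⁻¹ ∈ ZT := fun x hx => hmap ⟨x, hx, rfl⟩
  exact QuatSyl.mem_normalizer_fin hc

theorem mem_T_B : pm cT ∈ BB := Subgroup.subset_closure (by simp)
theorem mem_U_B : pm cU ∈ BB := Subgroup.subset_closure (by simp)

theorem B_le_M24 : BB ≤ M24 := by
  unfold BB
  rw [Subgroup.closure_le]
  rintro x (rfl | rfl)
  · exact mem_M24_T
  · exact mem_M24_U

theorem B_le_norm : BB ≤ Subgroup.normalizer (ZT : Set (Equiv.Perm GolayPt)) := by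
  unfold BB
  rw [Subgroup.closure_le]
  rintro x (rfl | rfl)
  · exact mem_norm_of_rel (k := 1) (by rw [pow_one])
  · exact mem_norm_of_rel rel_UT

theorem card_B : Nat.card BB = 253 := by
  have h1 : Nat.card BB ∣ 253 := by
    rw [← card_N0]
    exact Subgroup.card_dvd_of_le (le_inf B_le_M24 B_le_norm)
  have h2 : 23 ∣ Nat.card BB := by
    have : orderOf (pm cT) ∣ Nat.card BB := by
      rw [← Subgroup.orderOf_mk _ mem_T_B]; exact orderOf_dvd_natCard _
    rwa [orderOf_T] at this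
  have h3 : 11 ∣ Nat.card BB := by
    have : orderOf (pm cU) ∣ Nat.card BB := by
      rw [← Subgroup.orderOf_mk _ mem_U_B]; exact orderOf_dvd_natCard _
    rwa [orderOf_U] at this
  exact Nat.dvd_antisymm h1 (by
    have := Nat.Coprime.mul_dvd_of_dvd_of_dvd (by norm_num : Nat.Coprime 23 11) h2 h3
    simpa using this)

theorem B_eq : BB = N0 := Subgroup.eq_of_le_of_card_ge (le_inf B_le_M24 B_le_norm) (by rw [card_B, card_N0])

theorem num23 {F : Subgroup (Equiv.Perm GolayPt)} (hB : BB ≤ F) (hF : F ≤ M24) : ∃ m, Nat.card F = m * 253 ∧ m % 23 = 1 := by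
  have : Fact (Nat.Prime 23) := ⟨by norm_num⟩
  have hT : pm cT ∈ F := hB mem_T_B
  have hN : Nat.card (Subgroup.normalizer ((Subgroup.zpowers (⟨pm cT, hT⟩ : F) : Subgroup F) : Set F)) = 253 := by
    rw [card_sub_norm hT]
    have e : F ⊓ Subgroup.normalizer (ZT : Set (Equiv.Perm GolayPt)) = BB := by
      apply le_antisymm
      · rw [B_eq]; exact inf_le_inf_right _ hF
      · exact le_inf hB B_le_norm
    rw [e, card_B]
  have hdv : Nat.card F ∣ 244823040 := by rw [← card_M24]; exact Subgroup.card_dvd_of_le hF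
  have h23 : 23 ∣ Nat.card F := by
    have : orderOf (pm cT) ∣ Nat.card F := by
      rw [← Subgroup.orderOf_mk _ hT]; exact orderOf_dvd_natCard _
    rwa [orderOf_T] at this
  have hfac : (Nat.card F).factorization 23 = 1 := by
    have h3 : 1 ≤ (Nat.card F).factorization 23 := ((by norm_num : Nat.Prime 23).dvd_iff_one_le_factorization Nat.card_pos.ne').1 h23
    have h4 : ¬ 2 ≤ (Nat.card F).factorization 23 := by
      intro h
      have h5 := ((by norm_num : Nat.Prime 23).pow_dvd_iff_le_factorization Nat.card_pos.ne').2 h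
      exact absurd (h5.trans hdv) (by norm_num)
    omega
  let P1 : Sylow 23 F := Sylow.ofCard (Subgroup.zpowers (⟨pm cT, hT⟩ : F)) (by
    rw [Nat.card_zpowers, Subgroup.orderOf_mk, orderOf_T, hfac, pow_one])
  have e1 := Subgroup.card_mul_index (Subgroup.normalizer ((P1 : Subgroup F) : Set F))
  have e2 := card_sylow_modEq_one 23 F
  rw [P1.card_eq_index_normalizer] at e2
  refine ⟨(Subgroup.normalizer ((P1 : Subgroup F) : Set F)).index, ?_, e2⟩
  rw [← e1, mul_comm]
  congr 1

theorem mem_m23_U : pm cU ∈ m23 := mem_m22_U.1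

theorem B_le_m23 : BB ≤ m23 := by
  unfold BB
  rw [Subgroup.closure_le]
  rintro x (rfl | rfl)
  · exact mem_m23_T
  · exact mem_m23_U

theorem num11 {F : Subgroup (Equiv.Perm GolayPt)} (hB : BB ≤ F) (hF : F ≤ m23) : ∃ m e, Nat.card F = m * (11 * e) ∧ m % 11 = 1 ∧
    (e = 1 ∨ e = 5) := by
  have : Fact (Nat.Prime 11) := ⟨by norm_num⟩
  have hU : pm cU ∈ F := hB mem_U_B
  have hcF : Nat.card (F.subgroupOf m23) = Nat.card F := Nat.card_congr (Subgroup.subgroupOfEquivOfLe hF).toEquiv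
  obtain ⟨n, d, m, e, h1, h2, h3, h4, h5, h6⟩ := Co3Out.count_gen (G := m23) (p := 11) (T := ⟨pm cU, mem_m23_U⟩)
    (by rw [Subgroup.orderOf_mk, orderOf_U]) (by rw [card_m23]; norm_num)
    (fun g hg => mem_zpowers_sub (cent_U g.2.1 (congrArg Subtype.val hg))) (F.subgroupOf m23) (by
      rw [hcF]
      have : orderOf (pm cU) ∣ Nat.card F := by
        rw [← Subgroup.orderOf_mk _ hU]; exact orderOf_dvd_natCard _
      rwa [orderOf_U] at this)
  rw [card_m23] at h1
  rw [hcF] at h4
  have hd : d = 5 := by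
    have hd : d ∈ Nat.divisors 10 := Nat.mem_divisors.2 ⟨h3, by norm_num⟩
    have : Nat.divisors 10 = {1, 2, 5, 10} := by decide
    rw [this] at hd
    simp only [Finset.mem_insert, Finset.mem_singleton] at hd
    rcases hd with rfl | rfl | rfl | rfl <;> omega
  subst hd
  refine ⟨m, e, h4, h5, ?_⟩
  exact (Nat.dvd_prime (by norm_num)).1 h6

theorem num_chk : ∀ k ∈ Nat.divisors 40320, k % 23 = 1 → (k % 11 = 1 ∨ k % 11 = 5) → k = 1 ∨ k = 40320 := by
  decide +kernel

theorem card_m23_sub {F : Subgroup (Equiv.Perm GolayPt)} (hB : BB ≤ F) (hF : F ≤ m23) : Nat.card F = 253 ∨ Nat.card F = 10200960 := by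
  obtain ⟨k, hk, hk1⟩ := num23 hB (hF.trans inf_le_left)
  obtain ⟨m, e, h1, h2, h3⟩ := num11 hB hF
  have hdv : Nat.card F ∣ 10200960 := by rw [← card_m23]; exact Subgroup.card_dvd_of_le hF
  have hkd : k ∣ 40320 := by
    rw [hk, show 10200960 = 40320 * 253 by norm_num] at hdv
    exact Nat.dvd_of_mul_dvd_mul_right (by norm_num) hdv
  have h4 : 23 * k = m * e := by
    rw [hk] at h1
    have : 11 * (23 * k) = 11 * (m * e) := by linarith
    exact Nat.eq_of_mul_eq_mul_left (by norm_num) this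
  have h5 : k % 11 = 1 ∨ k % 11 = 5 := by
    rcases h3 with rfl | rfl <;> omega
  rcases num_chk k (Nat.mem_divisors.2 ⟨hkd, by norm_num⟩) hk1 h5 with h | h
  · left; rw [hk, h]
  · right; rw [hk, h]

end Cfsg.Agent.Lib.L23
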