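import Mathlib.LinearAlgebra.Matrix.GeneralLinearGroup.Defs
import Mathlib.LinearAlgebra.FiniteDimensional.Lemmas
import Mathlib.LinearAlgebra.Matrix.ToLin

/-!
Representations on a hyperplane as matrices.
-/

set_option autoImplicit false

namespace Cfsg.Agent.Lib.Rep13

theorem finrank_ker_abs {K V : Type*} [Field K] [AddCommGroup V] [Module K V] [FiniteDimensional K V] (φ : V →ₗ[K] K)
    (hφ : Function.Surjective φ) {n : ℕ} (h : Module.finrank K V = n + 1) : Module.finrank K (LinearMap.ker φ) = n := by
  have h1 := LinearMap.finrank_range_add_finrank_ker φ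
  rw [LinearMap.range_eq_top.2 hφ, finrank_top, Module.finrank_self, h] at h1
  omega

theorem glEmb {K W G : Type*} [Field K] [AddCommGroup W] [Module K W] [FiniteDimensional K W] [Group G] {n : ℕ}
    (h : Module.finrank K W = n) (ρ : G →* Module.End K W) (hinj : ∀ g, ρ g = 1 → g = 1) :
    ∃ f : G →* GL (Fin n) K, Function.Injective f := by
  let b : Module.Basis (Fin n) K W := Module.finBasisOfFinrankEq K W h
  let e : Module.End K W ≃* Matrix (Fin n) (Fin n) K := (LinearMap.toMatrixAlgEquiv b).toMulEquiv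
  refine ⟨(Units.mapEquiv e).toMonoidHom.comp ρ.toHomUnits, ?_⟩
  rw [MonoidHom.coe_comp]
  refine (Units.mapEquiv e).injective.comp ?_
  rw [injective_iff_map_eq_one]
  intro g hg
  apply hinj
  have := congrArg (fun u : (Module.End K W)ˣ => (u : Module.End K W)) hg
  exact this

theorem glEmb' {K ι G : Type*} [Field K] [Fintype ι] [Group G] {n : ℕ} (hι : Fintype.card ι = n + 1)
    (φ : (ι → K) →ₗ[K] K) (hφ : Function.Surjective φ) (ρ : G →* Module.End K (LinearMap.ker φ)) (hinj : ∀ g, ρ g = 1 → g = 1) :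
    ∃ f : G →* GL (Fin n) K, Function.Injective f :=
  glEmb (finrank_ker_abs φ hφ (by rw [Module.finrank_fintype_fun_eq_card, hι])) ρ hinj

end Cfsg.Agent.Lib.Rep13
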