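import Cfsg.Agent.Lib.M22Sub.Big
import Cfsg.Agent.Lib.M22Sub.Fix
import Cfsg.Agent.Lib.Golay.Oct2
import Cfsg.Agent.Lib.Golay.OctStab
import Cfsg.Agent.Lib.Golay.Max

/-!
Subgroups of index 253 in the point stabiliser of the group of the length-24 code.
-/

set_option autoImplicit false

namespace Cfsg.Agent.Lib.L23

open Cfsg Finset
open Cfsg.Agent.Lib.Golay Cfsg.Agent.Lib Cfsg.Agent.Lib.M22Sub
open scoped Pointwise

theorem inv_app (g : Equiv.Perm GolayPt) (y : GolayPt) : g⁻¹ (g y) = y := g.symm_apply_apply y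

theorem card_stab3 {p q r : GolayPt} (hpq : p ≠ q) (hpr : p ≠ r) (hqr : q ≠ r) :
    Nat.card ↥(M24 ⊓ MulAction.stabilizer (Equiv.Perm GolayPt) p ⊓ MulAction.stabilizer (Equiv.Perm GolayPt) q ⊓ MulAction.stabilizer (Equiv.Perm GolayPt) r) = 20160 := by
  have h := card_orbF (M24 ⊓ MulAction.stabilizer (Equiv.Perm GolayPt) p ⊓ MulAction.stabilizer (Equiv.Perm GolayPt) q) r
  rw [card_M24_stab2 hpq] at h
  have h1 : orbF (M24 ⊓ MulAction.stabilizer (Equiv.Perm GolayPt) p ⊓ MulAction.stabilizer (Equiv.Perm GolayPt) q) r = ({p, q} : Finset GolayPt)ᶜ := by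
    ext y
    rw [mem_orbF, Finset.mem_compl, Finset.mem_insert, Finset.mem_singleton, not_or]
    constructor
    · rintro ⟨g, hg, rfl⟩
      have h1 : g p = p := hg.1.2
      have h2 : g q = q := hg.2
      exact ⟨fun e => hpr (g.injective (h1.trans e.symm)), fun e => hqr (g.injective (h2.trans e.symm))⟩
    · rintro ⟨hy1, hy2⟩
      obtain ⟨g, hg, h1, h2⟩ := exists_map_fix (n := 2) (by norm_num) (fun i => if i = 0 then p else q) (by
        intro i hi j hj
        have : i = 1 := by omega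
        have : j = 0 := by omega
        subst i j
        simpa using hpq) (a := r) (b := y) (by
        intro i hi
        interval_cases i
        · simpa using hpr
        · simpa using hqr) (by
        intro i hi
        interval_cases i
        · intro h; exact hy1 (by simpa using h.symm)
        · intro h; exact hy2 (by simpa using h.symm))
      exact ⟨g, ⟨⟨hg, by simpa using h1 0 (by norm_num)⟩, by simpa using h1 1 (by norm_num)⟩, h2⟩
  rw [h1, Finset.card_compl, card_golayPt, Finset.card_pair hpq] at h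
  omega

theorem card_duad_le {x : GolayPt} {D : Finset GolayPt} (hD : D.card = 2) (hx : x ∉ D) :
    Nat.card ↥(M24 ⊓ MulAction.stabilizer (Equiv.Perm GolayPt) x ⊓ MulAction.stabilizer (Equiv.Perm GolayPt) D) ≤ 40320 := by
  obtain ⟨a, b, hab, rfl⟩ := Finset.card_eq_two.1 hD
  rw [Finset.mem_insert, Finset.mem_singleton, not_or] at hx
  have h := card_orbF (M24 ⊓ MulAction.stabilizer (Equiv.Perm GolayPt) x ⊓ MulAction.stabilizer (Equiv.Perm GolayPt) ({a, b} : Finset GolayPt)) a
  have h1 : (orbF (M24 ⊓ MulAction.stabilizer (Equiv.Perm GolayPt) x ⊓ MulAction.stabilizer (Equiv.Perm GolayPt) ({a, b} : Finset GolayPt)) a).card ≤ 2 := by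
    rw [← Finset.card_pair hab]
    apply Finset.card_le_card
    intro y hy
    obtain ⟨g, hg, rfl⟩ := mem_orbF.1 hy
    have h2 : g • ({a, b} : Finset GolayPt) = {a, b} := hg.2
    rw [← h2, smul_mem_smul_iff']
    simp
  have h2 : M24 ⊓ MulAction.stabilizer (Equiv.Perm GolayPt) x ⊓ MulAction.stabilizer (Equiv.Perm GolayPt) ({a, b} : Finset GolayPt) ⊓ MulAction.stabilizer (Equiv.Perm GolayPt) a ≤
      M24 ⊓ MulAction.stabilizer (Equiv.Perm GolayPt) x ⊓ MulAction.stabilizer (Equiv.Perm GolayPt) a ⊓ MulAction.stabilizer (Equiv.Perm GolayPt) b := by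
    rintro g ⟨⟨⟨h3, h4⟩, h5⟩, h6⟩
    refine ⟨⟨⟨h3, h4⟩, h6⟩, ?_⟩
    have h5' : g • ({a, b} : Finset GolayPt) = {a, b} := h5
    have h6' : g a = a := h6
    have h7 : g b ∈ ({a, b} : Finset GolayPt) := by
      rw [← h5', smul_mem_smul_iff']; simp
    rw [Finset.mem_insert, Finset.mem_singleton] at h7
    rcases h7 with h7 | h7
    · exact absurd (g.injective (h6'.trans h7.symm)) hab
    · exact h7
  have h3 := Nat.le_of_dvd Nat.card_pos (Subgroup.card_dvd_of_le h2)
  rw [card_stab3 hx.1 hx.2 hab] at h3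
  rw [h]
  calc _ ≤ 2 * 20160 := Nat.mul_le_mul h1 h3
    _ = 40320 := by norm_num

theorem card_oct_in_le {x : GolayPt} {O : Finset GolayPt} (hO : O ∈ octads) (hx : x ∈ O) :
    Nat.card ↥(M24 ⊓ MulAction.stabilizer (Equiv.Perm GolayPt) O ⊓ MulAction.stabilizer (Equiv.Perm GolayPt) x) ≤ 40320 := by
  have h := card_orbF (M24 ⊓ MulAction.stabilizer (Equiv.Perm GolayPt) O) x
  rw [card_M24_stab_octad hO] at h
  have hOc : O.card = 8 := (mem_octads.1 hO).2
  have h1 : 8 ≤ (orbF (M24 ⊓ MulAction.stabilizer (Equiv.Perm GolayPt) O) x).card := by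
    rw [← hOc]
    apply Finset.card_le_card
    intro y hy
    have hc : 2 ≤ (Oᶜ).card := by rw [Finset.card_compl, card_golayPt, hOc]; norm_num
    obtain ⟨p, hp, q, hq, hpq⟩ := Finset.one_lt_card.1 hc
    rw [Finset.mem_compl] at hp hq
    obtain ⟨g, hg, e1, _, _, e2⟩ := out_std2_in hO hp hq hx hpq
    obtain ⟨k, hk, e3, _, _, e4⟩ := out_std2_in hO hp hq hy hpq
    rw [mem_orbF]
    refine ⟨k * g⁻¹, ⟨M24.mul_mem hk (M24.inv_mem hg), ?_⟩, ?_⟩
    · show (k * g⁻¹) • O = O
      have : g⁻¹ • O = st oct0 := by rw [← e1, inv_smul_smul]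
      rw [mul_smul, this, e3]
    · show k (g⁻¹ x) = y
      rw [← e2, inv_app, e4]
  by_contra hc
  push Not at hc
  have : 8 * 40321 ≤ (orbF (M24 ⊓ MulAction.stabilizer (Equiv.Perm GolayPt) O) x).card *
      Nat.card ↥(M24 ⊓ MulAction.stabilizer (Equiv.Perm GolayPt) O ⊓ MulAction.stabilizer (Equiv.Perm GolayPt) x) := Nat.mul_le_mul h1 hc
  omega

theorem card_oct_out_le {x : GolayPt} {O : Finset GolayPt} (hO : O ∈ octads) (hx : x ∉ O) :
    Nat.card ↥(M24 ⊓ MulAction.stabilizer (Equiv.Perm GolayPt) O ⊓ MulAction.stabilizer (Equiv.Perm GolayPt) x) ≤ 20160 := by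
  have h := card_orbF (M24 ⊓ MulAction.stabilizer (Equiv.Perm GolayPt) O) x
  rw [card_M24_stab_octad hO] at h
  have hOc : O.card = 8 := (mem_octads.1 hO).2
  have hOc' : (Oᶜ).card = 16 := by rw [Finset.card_compl, card_golayPt, hOc]
  have h1 : 16 ≤ (orbF (M24 ⊓ MulAction.stabilizer (Equiv.Perm GolayPt) O) x).card := by
    rw [← hOc']
    apply Finset.card_le_card
    intro y hy
    rw [Finset.mem_compl] at hy
    obtain ⟨g, hg, e1, e2⟩ := fixOct_trans hO hx hy
    rw [mem_orbF]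
    exact ⟨g, ⟨hg, smul_eq_of_fix e1⟩, e2⟩
  by_contra hc
  push Not at hc
  have : 16 * 20161 ≤ (orbF (M24 ⊓ MulAction.stabilizer (Equiv.Perm GolayPt) O) x).card *
      Nat.card ↥(M24 ⊓ MulAction.stabilizer (Equiv.Perm GolayPt) O ⊓ MulAction.stabilizer (Equiv.Perm GolayPt) x) := Nat.mul_le_mul h1 hc
  omega

variable {K : Subgroup (Equiv.Perm GolayPt)} {x : GolayPt}

theorem smul_eq_of_inv {g : (Equiv.Perm GolayPt)} {Y : Finset GolayPt} (h : ∀ y ∈ Y, g y ∈ Y) : g • Y = Y := by
  apply Finset.eq_of_subset_of_card_le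
  · intro y hy
    rw [mem_smul_iff] at hy
    have := h _ hy
    rwa [Equiv.apply_symm_apply] at this
  · rw [Finset.card_smul_finset]

/-- the number of fixed points on an invariant set -/
theorem fixcount {p : ℕ} [Fact p.Prime] {t : (Equiv.Perm GolayPt)} (ht : t ^ p = 1) {Y : Finset GolayPt} (hY : ∀ y ∈ Y, t y ∈ Y) {m : ℕ}
    (hF : (Finset.univ.filter (fun y => t y = y)).card = m + 1) (hx : t x = x) (hxY : x ∉ Y) :
    (Y.filter (fun y => t y = y)).card ≤ m ∧ (Y.filter (fun y => t y = y)).card % p = Y.card % p := by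
  refine ⟨?_, fix_mod_elt ht hY⟩
  have h1 : insert x (Y.filter (fun y => t y = y)) ⊆ Finset.univ.filter (fun y => t y = y) := by
    intro y hy
    rw [Finset.mem_insert, Finset.mem_filter] at hy
    rw [Finset.mem_filter]
    rcases hy with rfl | hy
    · exact ⟨Finset.mem_univ _, hx⟩
    · exact ⟨Finset.mem_univ _, hy.2⟩
  have h2 := Finset.card_le_card h1
  rw [Finset.card_insert_of_notMem (fun h => hxY (Finset.mem_filter.1 h).1), hF] at h2
  omega

/-- an invariant octad -/
theorem exists_oct (hK : K ≤ M24) (hx : ∀ g ∈ K, g x = x) {t : (Equiv.Perm GolayPt)} (htK : t ∈ K) (t5 : t ^ 5 = 1) (t1 : t ≠ 1)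
    {C : Finset GolayPt} (hC : ∀ g ∈ K, ∀ y ∈ C, g y ∈ C) (hxC : x ∉ C) (hCc : C.card = 7 ∨ C.card = 8) :
    ∃ O ∈ octads, ∀ g ∈ K, g • O = O := by
  have : Fact (Nat.Prime 5) := ⟨by norm_num⟩
  have hF := fix5 (hK htK) t5 t1
  obtain ⟨h1, h2⟩ := fixcount (m := 3) t5 (hC t htK) hF (hx t htK) hxC
  -- a moved point
  obtain ⟨c, hc, hcm⟩ : ∃ c ∈ C, t c ≠ c := by
    by_contra hne
    push Not at hne
    have : C.filter (fun y => t y = y) = C := Finset.filter_true_of_mem hne
    rw [this] at h1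
    omega
  set P := orbF (Subgroup.zpowers t) c with hP
  have hot : orderOf t = 5 := orderOf_eq_prime t5 t1
  have hPc : P.card = 5 := by
    have h3 := card_orbF (Subgroup.zpowers t) c
    rw [Nat.card_zpowers, hot] at h3
    have h4 : P.card ∣ 5 := ⟨_, h3⟩
    rcases (Nat.dvd_prime (by norm_num)).1 h4 with h5 | h5
    · exfalso
      rw [Finset.card_eq_one] at h5
      obtain ⟨y, hy⟩ := h5
      have e1 : c ∈ P := self_orbF _ _
      have e2 : t c ∈ P := orbF_inv (Subgroup.mem_zpowers t) e1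
      rw [hy, Finset.mem_singleton] at e1 e2
      exact hcm (e2.trans e1.symm)
    · exact h5
  have hPt : ∀ y ∈ P, t y ∈ P := fun y hy => orbF_inv (Subgroup.mem_zpowers t) hy
  have hzK : Subgroup.zpowers t ≤ K := by rw [Subgroup.zpowers_le]; exact htK
  have hPC : P ⊆ C := by
    intro y hy
    obtain ⟨g, hg, rfl⟩ := mem_orbF.1 hy
    exact hC g (hzK hg) c hc
  obtain ⟨O, hO, hPO⟩ := exists_octad5 hPc
  have hOc : O.card = 8 := (mem_octads.1 hO).2
  have htO : t • O = O := by
    apply octad_eq (smul_mem_octads (hK htK) hO) hO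
    rw [← hPc]
    apply Finset.card_le_card
    intro y hy
    rw [Finset.mem_inter]
    refine ⟨?_, hPO hy⟩
    rw [← smul_eq_of_inv hPt] at hy
    rw [mem_smul_iff] at hy ⊢
    exact hPO hy
  have htO' : ∀ y ∈ O, t y ∈ O := by
    intro y hy
    rw [← htO, smul_mem_smul_iff']; exact hy
  -- fixed points outside the cycle
  have key : ∀ Y : Finset GolayPt, (∀ y ∈ Y, t y ∈ Y) → P ⊆ Y → Y.card < 10 → 5 ≤ Y.card →
      (Y \ P).card = Y.card - 5 ∧ Y \ P ⊆ Finset.univ.filter (fun y => t y = y) := by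
    intro Y hY hPY hlt hge
    have e1 : (Y \ P).card = Y.card - 5 := by
      rw [Finset.card_sdiff_of_subset hPY, hPc]
    refine ⟨e1, ?_⟩
    have hinv : ∀ y ∈ Y \ P, t y ∈ Y \ P := by
      intro y hy
      rw [Finset.mem_sdiff] at hy ⊢
      refine ⟨hY y hy.1, fun h => hy.2 ?_⟩
      rw [← smul_eq_of_inv hPt, smul_mem_smul_iff'] at h
      exact h
    have h3 : ((Y \ P).filter (fun y => t y = y)).card % 5 = (Y \ P).card % 5 := fix_mod_elt t5 hinv
    have h4 : ((Y \ P).filter (fun y => t y = y)).card ≤ (Y \ P).card := Finset.card_filter_le _ _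
    have h5 : ((Y \ P).filter (fun y => t y = y)) = Y \ P := Finset.eq_of_subset_of_card_le (Finset.filter_subset _ _) (by omega)
    intro y hy
    rw [← h5, Finset.mem_filter] at hy
    rw [Finset.mem_filter]
    exact ⟨Finset.mem_univ _, hy.2⟩
  obtain ⟨a1, a2⟩ := key O htO' hPO (by omega) (by omega)
  obtain ⟨b1, b2⟩ := key C (hC t htK) hPC (by omega) (by omega)
  have h3 : C.card - 1 ≤ (O ∩ C).card := by
    have e1 : P ∪ ((O \ P) ∩ (C \ P)) ⊆ O ∩ C := by
      intro y hy
      rw [Finset.mem_union, Finset.mem_inter, Finset.mem_sdiff, Finset.mem_sdiff] at hy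
      rw [Finset.mem_inter]
      rcases hy with hy | hy
      · exact ⟨hPO hy, hPC hy⟩
      · exact ⟨hy.1.1, hy.2.1⟩
    have e2 := Finset.card_le_card e1
    rw [Finset.card_union_of_disjoint (by
      rw [Finset.disjoint_left]
      intro y hy hy'
      rw [Finset.mem_inter, Finset.mem_sdiff] at hy'
      exact hy'.1.2 hy), hPc] at e2
    have e3 := Finset.card_union_add_card_inter (O \ P) (C \ P)
    have e4 := Finset.card_le_card (Finset.union_subset a2 b2)
    rw [hF] at e4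
    omega
  refine ⟨O, hO, fun g hg => ?_⟩
  apply octad_eq (smul_mem_octads (hK hg) hO) hO
  have hgC : g • C = C := smul_eq_of_inv (hC g hg)
  have h4 : (g • O ∩ C).card = (O ∩ C).card := by
    conv_lhs => rw [← hgC]
    rw [← smul_inter', Finset.card_smul_finset]
  have e1 : (g • O ∩ C) ∪ (O ∩ C) ⊆ C := Finset.union_subset Finset.inter_subset_right Finset.inter_subset_right
  have e2 := Finset.card_le_card e1
  have e3 := Finset.card_union_add_card_inter (g • O ∩ C) (O ∩ C)
  have e4 : (g • O ∩ C) ∩ (O ∩ C) ⊆ g • O ∩ O := by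
    intro y hy
    simp only [Finset.mem_inter] at hy ⊢
    exact ⟨hy.1.1, hy.2.1⟩
  have e5 := Finset.card_le_card e4
  omega

theorem num_a : ∀ n < 24, n ∣ 40320 → n % 7 = 2 → n % 5 ≤ 3 → n = 2 ∨ n = 16 := by decide +kernel
theorem num_b : ∀ n < 24, n ∣ 40320 → n % 7 = 1 → n % 5 ≤ 3 → n = 1 ∨ n = 8 ∨ n = 15 := by decide +kernel

/-- an invariant pair or an invariant set of size 7 or 8 -/
theorem exists_inv (hK : K ≤ M24) (hx : ∀ g ∈ K, g x = x) (hc : Nat.card K = 40320) :
    (∃ D : Finset GolayPt, D.card = 2 ∧ x ∉ D ∧ ∀ g ∈ K, ∀ y ∈ D, g y ∈ D) ∨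
    (∃ O ∈ octads, ∀ g ∈ K, g • O = O) := by
  have f5 : Fact (Nat.Prime 5) := ⟨by norm_num⟩
  have f7 : Fact (Nat.Prime 7) := ⟨by norm_num⟩
  obtain ⟨⟨t, htK⟩, ht⟩ := exists_prime_orderOf_dvd_card' (G := K) 5 (by rw [hc]; norm_num)
  obtain ⟨⟨s, hsK⟩, hs⟩ := exists_prime_orderOf_dvd_card' (G := K) 7 (by rw [hc]; norm_num)
  rw [Subgroup.orderOf_mk] at ht hs
  have t5 : t ^ 5 = 1 := by rw [← ht]; exact pow_orderOf_eq_one t
  have s7 : s ^ 7 = 1 := by rw [← hs]; exact pow_orderOf_eq_one s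
  have t1 : t ≠ 1 := by rintro rfl; rw [orderOf_one] at ht; omega
  have s1 : s ≠ 1 := by rintro rfl; rw [orderOf_one] at hs; omega
  have hFt := fix5 (hK htK) t5 t1
  have hFs := fix7 (hK hsK) s7 s1
  have hxs : x ∈ Finset.univ.filter (fun y => s y = y) := Finset.mem_filter.2 ⟨Finset.mem_univ _, hx s hsK⟩
  have h2 : ((Finset.univ.filter (fun y => s y = y)).erase x).card = 2 := by
    rw [Finset.card_erase_of_mem hxs, hFs]
  obtain ⟨b1, b2, hb, hbe⟩ := Finset.card_eq_two.1 h2
  have hb1 : s b1 = b1 ∧ b1 ≠ x := by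
    have : b1 ∈ (Finset.univ.filter (fun y => s y = y)).erase x := by rw [hbe]; simp
    rw [Finset.mem_erase, Finset.mem_filter] at this
    exact ⟨this.2.2, this.1⟩
  have hb2 : s b2 = b2 ∧ b2 ≠ x := by
    have : b2 ∈ (Finset.univ.filter (fun y => s y = y)).erase x := by rw [hbe]; simp
    rw [Finset.mem_erase, Finset.mem_filter] at this
    exact ⟨this.2.2, this.1⟩
  have hfs : ∀ y, s y = y → y = x ∨ y = b1 ∨ y = b2 := by
    intro y hy
    by_cases hyx : y = x
    · exact Or.inl hyx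
    · right
      have : y ∈ (Finset.univ.filter (fun y => s y = y)).erase x := by
        rw [Finset.mem_erase, Finset.mem_filter]; exact ⟨hyx, Finset.mem_univ _, hy⟩
      rw [hbe] at this
      simpa using this
  -- general facts on orbits
  have hdv : ∀ y, (orbF K y).card ∣ 40320 := fun y => ⟨_, hc ▸ card_orbF K y⟩
  have hinv : ∀ y, ∀ g ∈ K, ∀ z ∈ orbF K y, g z ∈ orbF K y := fun y g hg z hz => orbF_inv hg hz
  have hxo : ∀ y, y ≠ x → x ∉ orbF K y := by
    intro y hy h
    obtain ⟨g, hg, e⟩ := mem_orbF.1 h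
    exact hy (g.injective (e.trans (hx g hg).symm))
  have hlt : ∀ y, y ≠ x → (orbF K y).card < 24 := by
    intro y hy
    have := Finset.card_lt_univ_of_notMem (hxo y hy)
    rwa [card_golayPt] at this
  have h5 : ∀ y, y ≠ x → ((orbF K y).filter (fun z => t z = z)).card ≤ 3 ∧
      ((orbF K y).filter (fun z => t z = z)).card % 5 = (orbF K y).card % 5 := fun y hy =>
    fixcount (m := 3) t5 (hinv y t htK) hFt (hx t htK) (hxo y hy)
  have h7 : ∀ y, ((orbF K y).filter (fun z => s z = z)).card % 7 = (orbF K y).card % 7 := fun y =>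
    fix_mod_elt s7 (hinv y s hsK)
  -- invariant sets of size 7 or 8
  have hfin : ∀ C : Finset GolayPt, (∀ g ∈ K, ∀ y ∈ C, g y ∈ C) → x ∉ C → (C.card = 7 ∨ C.card = 8) →
      (∃ O ∈ octads, ∀ g ∈ K, g • O = O) := fun C h1 h2 h3 => exists_oct hK hx htK t5 t1 h1 h2 h3
  -- complements
  have hcompl : ∀ Y : Finset GolayPt, (∀ g ∈ K, ∀ y ∈ Y, g y ∈ Y) → ∀ g ∈ K, ∀ y ∈ Yᶜ, g y ∈ Yᶜ := by
    intro Y hY g hg y hy
    rw [Finset.mem_compl] at hy ⊢
    intro h
    have := hY g⁻¹ (K.inv_mem hg) _ h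
    rw [inv_app] at this
    exact hy this
  have hxinv : ∀ g ∈ K, ∀ y ∈ ({x} : Finset GolayPt), g y ∈ ({x} : Finset GolayPt) := by
    intro g hg y hy
    rw [Finset.mem_singleton] at hy ⊢
    rw [hy, hx g hg]
  have hun : ∀ Y Z : Finset GolayPt, (∀ g ∈ K, ∀ y ∈ Y, g y ∈ Y) → (∀ g ∈ K, ∀ y ∈ Z, g y ∈ Z) →
      ∀ g ∈ K, ∀ y ∈ Y ∪ Z, g y ∈ Y ∪ Z := by
    intro Y Z hY hZ g hg y hy
    rw [Finset.mem_union] at hy ⊢
    exact hy.imp (hY g hg y) (hZ g hg y)
  by_cases hsame : b2 ∈ orbF K b1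
  · -- one orbit containing both
    have hf : (orbF K b1).filter (fun z => s z = z) = {b1, b2} := by
      ext z
      rw [Finset.mem_filter, Finset.mem_insert, Finset.mem_singleton]
      constructor
      · rintro ⟨h1, h2⟩
        rcases hfs z h2 with rfl | h | h
        · exact absurd h1 (hxo b1 hb1.2)
        · exact Or.inl h
        · exact Or.inr h
      · rintro (rfl | rfl)
        · exact ⟨self_orbF _ _, hb1.1⟩
        · exact ⟨hsame, hb2.1⟩
    have h7' := h7 b1
    rw [hf, Finset.card_pair hb] at h7'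
    have h5' := h5 b1 hb1.2
    rcases num_a _ (hlt b1 hb1.2) (hdv b1) (by omega) (by omega) with h | h
    · exact Or.inl ⟨_, h, hxo b1 hb1.2, hinv b1⟩
    · right
      refine hfin (orbF K b1 ∪ {x})ᶜ (hcompl _ (hun _ _ (hinv b1) hxinv)) (by simp) (Or.inl ?_)
      rw [Finset.card_compl, card_golayPt, Finset.card_union_of_disjoint (by
        rw [Finset.disjoint_singleton_right]; exact hxo b1 hb1.2), h, Finset.card_singleton]
  · -- different orbits
    have hdis : Disjoint (orbF K b1) (orbF K b2) := by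
      rw [Finset.disjoint_left]
      intro z hz1 hz2
      obtain ⟨g, hg, e⟩ := mem_orbF.1 hz1
      obtain ⟨k, hk, e'⟩ := mem_orbF.1 hz2
      apply hsame
      rw [mem_orbF]
      refine ⟨k⁻¹ * g, K.mul_mem (K.inv_mem hk) hg, ?_⟩
      rw [Equiv.Perm.mul_apply, e, ← e', inv_app]
    have hf1 : (orbF K b1).filter (fun z => s z = z) = {b1} := by
      ext z
      rw [Finset.mem_filter, Finset.mem_singleton]
      constructor
      · rintro ⟨h1, h2⟩
        rcases hfs z h2 with rfl | h | h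
        · exact absurd h1 (hxo b1 hb1.2)
        · exact h
        · rw [h] at h1; exact absurd h1 hsame
      · rintro rfl
        exact ⟨self_orbF _ _, hb1.1⟩
    have hf2 : (orbF K b2).filter (fun z => s z = z) = {b2} := by
      ext z
      rw [Finset.mem_filter, Finset.mem_singleton]
      constructor
      · rintro ⟨h1, h2⟩
        rcases hfs z h2 with rfl | h | h
        · exact absurd h1 (hxo b2 hb2.2)
        · rw [h] at h1
          exact absurd h1 (Finset.disjoint_left.1 hdis (self_orbF _ _))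
        · exact h
      · rintro rfl
        exact ⟨self_orbF _ _, hb2.1⟩
    have h7a := h7 b1
    have h7b := h7 b2
    rw [hf1, Finset.card_singleton] at h7a
    rw [hf2, Finset.card_singleton] at h7b
    have h5a := h5 b1 hb1.2
    have h5b := h5 b2 hb2.2
    have hxu : x ∉ orbF K b1 ∪ orbF K b2 := by
      rw [Finset.mem_union, not_or]; exact ⟨hxo b1 hb1.2, hxo b2 hb2.2⟩
    have h5c := fixcount (m := 3) t5 (hun _ _ (hinv b1) (hinv b2) t htK) hFt (hx t htK) hxu
    rw [Finset.filter_union, Finset.card_union_of_disjoint (Finset.disjoint_filter_filter hdis)] at h5c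
    have hcu : (orbF K b1).card + (orbF K b2).card < 24 := by
      rw [← Finset.card_union_of_disjoint hdis]
      have := Finset.card_lt_univ_of_notMem hxu
      rwa [card_golayPt] at this
    have hcard3 : ((orbF K b1 ∪ orbF K b2 ∪ {x})ᶜ).card = 23 - ((orbF K b1).card + (orbF K b2).card) := by
      rw [Finset.card_compl, card_golayPt, Finset.card_union_of_disjoint (by
        rw [Finset.disjoint_singleton_right]; exact hxu), Finset.card_union_of_disjoint hdis, Finset.card_singleton]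
      omega
    have hinv3 := hcompl _ (hun _ _ (hun _ _ (hinv b1) (hinv b2)) hxinv)
    rcases num_b _ (hlt b1 hb1.2) (hdv b1) (by omega) (by omega) with h | h | h <;>
      rcases num_b _ (hlt b2 hb2.2) (hdv b2) (by omega) (by omega) with h' | h' | h'
    · left
      refine ⟨orbF K b1 ∪ orbF K b2, by rw [Finset.card_union_of_disjoint hdis, h, h'], hxu, hun _ _ (hinv b1) (hinv b2)⟩
    · omega
    · right
      exact hfin _ hinv3 (by simp) (Or.inl (by rw [hcard3]; omega))
    · omega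
    · omega
    · right
      exact hfin _ (hinv b1) (hxo b1 hb1.2) (Or.inr h)
    · right
      exact hfin _ hinv3 (by simp) (Or.inl (by rw [hcard3]; omega))
    · right
      exact hfin _ (hinv b2) (hxo b2 hb2.2) (Or.inr h')
    · omega

theorem classify (hK : K ≤ M24) (hx : ∀ g ∈ K, g x = x) (hc : Nat.card K = 40320) :
    (∃ D : Finset GolayPt, D.card = 2 ∧ x ∉ D ∧ K = M24 ⊓ MulAction.stabilizer (Equiv.Perm GolayPt) x ⊓ MulAction.stabilizer (Equiv.Perm GolayPt) D) ∨
    (∃ O ∈ octads, x ∈ O ∧ K = M24 ⊓ MulAction.stabilizer (Equiv.Perm GolayPt) x ⊓ MulAction.stabilizer (Equiv.Perm GolayPt) O) := by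
  rcases exists_inv hK hx hc with ⟨D, hD, hxD, hinv⟩ | ⟨O, hO, hinv⟩
  · left
    refine ⟨D, hD, hxD, ?_⟩
    apply Subgroup.eq_of_le_of_card_ge
    · exact fun g hg => ⟨⟨hK hg, hx g hg⟩, smul_eq_of_inv (hinv g hg)⟩
    · rw [hc]; exact card_duad_le hD hxD
  · have hle : K ≤ M24 ⊓ MulAction.stabilizer (Equiv.Perm GolayPt) O ⊓ MulAction.stabilizer (Equiv.Perm GolayPt) x :=
      fun g hg => ⟨⟨hK hg, hinv g hg⟩, hx g hg⟩
    by_cases hxO : x ∈ O
    · right
      refine ⟨O, hO, hxO, ?_⟩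
      have e : M24 ⊓ MulAction.stabilizer (Equiv.Perm GolayPt) x ⊓ MulAction.stabilizer (Equiv.Perm GolayPt) O =
          M24 ⊓ MulAction.stabilizer (Equiv.Perm GolayPt) O ⊓ MulAction.stabilizer (Equiv.Perm GolayPt) x := by
        rw [inf_assoc, inf_comm (MulAction.stabilizer (Equiv.Perm GolayPt) x), ← inf_assoc]
      rw [e]
      exact Subgroup.eq_of_le_of_card_ge hle (by rw [hc]; exact card_oct_in_le hO hxO)
    · exfalso
      have h1 := Nat.le_of_dvd Nat.card_pos (Subgroup.card_dvd_of_le hle)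
      have h2 := card_oct_out_le hO hxO
      omega

end Cfsg.Agent.Lib.L23
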