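import Cfsg.Agent.Lib.L23.Ind253

/-!
Subgroups of index 253 in the point stabiliser of the group of the length-24 code: the statement.
-/

set_option autoImplicit false

namespace Cfsg.Agent.Lib.L23

open Cfsg Finset
open Cfsg.Agent.Lib.Golay Cfsg.Agent.Lib Cfsg.Agent.Lib.M22Sub
open scoped Pointwise

/-- image in the full symmetric group -/
def im2 {x : GolayPt} (H : Subgroup ↥(MulAction.stabilizer M24 x)) : Subgroup (Equiv.Perm GolayPt) :=
  (H.map (MulAction.stabilizer M24 x).subtype).map M24.subtype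

theorem im2_inj {x : GolayPt} {H L : Subgroup ↥(MulAction.stabilizer M24 x)} (h : im2 H = im2 L) : H = L := by
  unfold im2 at h
  exact Subgroup.map_injective (Subgroup.subtype_injective _) (Subgroup.map_injective (Subgroup.subtype_injective _) h)

theorem card_im2 {x : GolayPt} (H : Subgroup ↥(MulAction.stabilizer M24 x)) : Nat.card (im2 H) = Nat.card H := by
  unfold im2
  rw [Subgroup.card_map_of_injective (Subgroup.subtype_injective _), Subgroup.card_map_of_injective (Subgroup.subtype_injective _)]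

theorem mem_im2 {x : GolayPt} {H : Subgroup ↥(MulAction.stabilizer M24 x)} {g : Equiv.Perm GolayPt} :
    g ∈ im2 H ↔ ∃ (h1 : g ∈ M24) (h2 : (⟨g, h1⟩ : M24) ∈ MulAction.stabilizer M24 x), (⟨⟨g, h1⟩, h2⟩ : ↥(MulAction.stabilizer M24 x)) ∈ H := by
  constructor
  · rintro ⟨_, ⟨⟨⟨a, h1⟩, h2⟩, h3, rfl⟩, rfl⟩
    exact ⟨h1, h2, h3⟩
  · rintro ⟨h1, h2, h3⟩
    exact ⟨⟨g, h1⟩, ⟨⟨⟨g, h1⟩, h2⟩, h3, rfl⟩, rfl⟩

theorem im2_top (x : GolayPt) : im2 (⊤ : Subgroup ↥(MulAction.stabilizer M24 x)) = M24 ⊓ MulAction.stabilizer (Equiv.Perm GolayPt) x := by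
  ext g
  rw [mem_im2]
  constructor
  · rintro ⟨h1, h2, _⟩; exact ⟨h1, h2⟩
  · rintro ⟨h1, h2⟩; exact ⟨h1, h2, Subgroup.mem_top _⟩

theorem im2_stab (x : GolayPt) (s : Finset GolayPt) : im2 ((MulAction.stabilizer M24 s).subgroupOf (MulAction.stabilizer M24 x)) =
    M24 ⊓ MulAction.stabilizer (Equiv.Perm GolayPt) x ⊓ MulAction.stabilizer (Equiv.Perm GolayPt) s := by
  ext g
  rw [mem_im2]
  constructor
  · rintro ⟨h1, h2, h3⟩; exact ⟨⟨h1, h2⟩, h3⟩
  · rintro ⟨⟨h1, h2⟩, h3⟩; exact ⟨h1, h2, h3⟩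

theorem main1609 (x : GolayPt) (H : Subgroup ↥(MulAction.stabilizer M24 x)) (hH : H.index = 253) :
    (∃ s : Finset GolayPt, s.card = 2 ∧ x ∉ s ∧ H = (MulAction.stabilizer M24 s).subgroupOf (MulAction.stabilizer M24 x)) ∨
    ∃ o ∈ octads, x ∈ o ∧ H = (MulAction.stabilizer M24 o).subgroupOf (MulAction.stabilizer M24 x) := by
  have hS : Nat.card ↥(MulAction.stabilizer M24 x) = 10200960 := by
    rw [← Subgroup.card_top, ← card_im2, im2_top, card_M24_stab1]
  have h1 := H.card_mul_index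
  rw [hH, hS] at h1
  have hc : Nat.card (im2 H) = 40320 := by rw [card_im2]; omega
  rcases classify (K := im2 H) (x := x) (fun g hg => (mem_im2.1 hg).1) (fun g hg => (mem_im2.1 hg).2.1) hc with
    ⟨D, h2, h3, h4⟩ | ⟨O, h2, h3, h4⟩
  · left
    exact ⟨D, h2, h3, im2_inj (by rw [h4, im2_stab])⟩
  · right
    exact ⟨O, h2, h3, im2_inj (by rw [h4, im2_stab])⟩

end Cfsg.Agent.Lib.L23
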