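import Cfsg.Agent.Lib.L23.Basic
import Cfsg.Agent.Lib.Golay.Dual
import Cfsg.Agent.Lib.Golay.OutM
import Cfsg.Agent.Lib.Golay.Dodec

/-!
Stabilisers of words of the length-24 code have no fixed points on the cocode.
-/

set_option autoImplicit false

namespace Cfsg.Agent.Lib.L23

open Cfsg Finset
open Cfsg.Agent.Lib.Golay Cfsg.Agent.Lib
open scoped Pointwise

def gA : ℕ := 0x8d4883d076794cb4a9929c2ed13801
def gB : ℕ := 0xb99879be2a406155a5a4b505200dc5
def datO : List (ℕ × ℕ) := [(0xa0e106, 0xe6e01d), (0x4c2146, 0xba800c), (0xd2c012, 0x88d015), (0x7ba01b, 0xd4b004), (0xc8a118, 0xd4b004), (0xd16140, 0x0), (0xdb411d, 0x5c6011), (0x2e4105, 0x88d015), (0x5c6011, 0x5c6011), (0x6b0357, 0xd4b004), (0xe6e01d, 0xc75001), (0x81511a, 0x88d015)]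
def datD : List (ℕ × ℕ) := [(0xa81458, 0xc75001), (0x60a1df, 0x0), (0x246158, 0x49f002), (0x5cc4e9, 0x0), (0x5094a2, 0x49f002), (0x74f5fa, 0x49f002), (0x41572, 0x49f002), (0x9c20c8, 0x0), (0x24c5a0, 0x0), (0xd98081, 0x0), (0xe0206c, 0x49f002), (0xa84a5, 0x49f002)]

def chkDat (a b : ℕ) (l : List (ℕ × ℕ)) : Bool :=
  (List.range 12).all (fun i =>
    inCode (l.getD i (0, 0)).1 && inCode (l.getD i (0, 0)).2 &&
    (((l.getD i (0, 0)).1 ^^^ act a (l.getD i (0, 0)).1) ^^^ ((l.getD i (0, 0)).2 ^^^ act b (l.getD i (0, 0)).2) == comb (2 ^ i)))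

theorem chkO : chkDat gA gB datO = true := by decide +kernel
theorem chkD : chkDat cU cZ datD = true := by decide +kernel
theorem gA_pres : pres gA = true := by decide +kernel
theorem gB_pres : pres gB = true := by decide +kernel
theorem cZ_pres' : pres cZ = true := by decide +kernel
theorem gA_oct : act gA oct0 = oct0 := by decide +kernel
theorem gB_oct : act gB oct0 = oct0 := by decide +kernel
theorem cU_dod : act cU dodU = dodU := by decide +kernel
theorem cZ_dod : act cZ dodU = dodU := by decide +kernel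

theorem even_symmDiff (A B C : Finset GolayPt) : ((A ∩ symmDiff B C).card) % 2 = ((A ∩ B).card + (A ∩ C).card) % 2 := by
  have h1 : A ∩ symmDiff B C = symmDiff (A ∩ B) (A ∩ C) := by
    ext p; simp only [Finset.mem_inter, Finset.mem_symmDiff]; tauto
  have h2 : (symmDiff (A ∩ B) (A ∩ C)).card + 2 * ((A ∩ B) ∩ (A ∩ C)).card = (A ∩ B).card + (A ∩ C).card := by
    have e1 : symmDiff (A ∩ B) (A ∩ C) = ((A ∩ B) \ (A ∩ C)) ∪ ((A ∩ C) \ (A ∩ B)) := by
      ext p; simp only [Finset.mem_symmDiff, Finset.mem_union, Finset.mem_sdiff]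
    rw [e1, Finset.card_union_of_disjoint]
    · have h3 := Finset.card_sdiff_add_card_inter (A ∩ B) (A ∩ C)
      have h4 := Finset.card_sdiff_add_card_inter (A ∩ C) (A ∩ B)
      rw [Finset.inter_comm (A ∩ C) (A ∩ B)] at h4
      omega
    · rw [Finset.disjoint_left]
      intro p hp hp'
      rw [Finset.mem_sdiff] at hp hp'
      exact hp.2 hp'.1
  rw [h1]; omega

theorem comm_even {W c : Finset GolayPt} {g : Equiv.Perm GolayPt} (hg : g ∈ M24) (hc : IsWord c)
    (hW : IsWord (symmDiff (g⁻¹ • W) W)) : (W ∩ symmDiff c (g • c)).card % 2 = 0 := by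
  have h1 : (W ∩ g • c).card = (g⁻¹ • W ∩ c).card := by
    have : g⁻¹ • (W ∩ g • c) = g⁻¹ • W ∩ c := by
      rw [smul_inter', inv_smul_smul]
    rw [← this, Finset.card_smul_finset]
  have h2 := hc.inter_even hW
  have h3 : (c ∩ symmDiff (g⁻¹ • W) W).card % 2 = 0 := by omega
  rw [even_symmDiff, Finset.inter_comm c, Finset.inter_comm c] at h3
  rw [even_symmDiff, h1]
  omega

theorem word_of_dat {a b : ℕ} {l : List (ℕ × ℕ)} (h : chkDat a b l = true) (ha : pres a = true) (hb : pres b = true)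
    {W : Finset GolayPt} (hWa : IsWord (symmDiff ((pm a)⁻¹ • W) W)) (hWb : IsWord (symmDiff ((pm b)⁻¹ • W) W)) : IsWord W := by
  apply golay_dual
  intro c hc
  refine word_induction (P := fun c => (W ∩ c).card % 2 = 0) ?_ ?_ ?_ hc
  · simp
  · intro s t hs ht
    rw [even_symmDiff]
    omega
  · intro i hi
    unfold chkDat at h
    rw [List.all_eq_true] at h
    have h1 := h i (List.mem_range.2 hi)
    simp only [Bool.and_eq_true, beq_iff_eq] at h1
    obtain ⟨⟨h2, h3⟩, h4⟩ := h1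
    rw [← h4, st_xor, st_xor, st_xor, ← pm_smul_st (pres_valid ha), ← pm_smul_st (pres_valid hb), even_symmDiff]
    have h5 := comm_even (pm_mem_M24 ha) ((isWord_st (inCode_lt h2)).2 h2) hWa
    have h6 := comm_even (pm_mem_M24 hb) ((isWord_st (inCode_lt h3)).2 h3) hWb
    omega

theorem stab_inv {g : Equiv.Perm GolayPt} {U : Finset GolayPt} (h : g • U = U) : g⁻¹ • U = U := by
  rw [inv_smul_eq_iff, h]

/-- fixed points on the cocode are trivial -/
theorem no_fix {U W : Finset GolayPt} (hU : IsWord U)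
    (h : ∀ σ ∈ M24, σ • U = U → IsWord (symmDiff (σ • W) W)) : IsWord W := by
  have hO : ∀ k ∈ M24, (∀ σ ∈ M24, σ • (k • st oct0) = k • st oct0 → IsWord (symmDiff (σ • W) W)) → IsWord W := by
    intro k hk hh
    have key : ∀ c, pres c = true → act c oct0 = oct0 → IsWord (symmDiff ((pm c)⁻¹ • (k⁻¹ • W)) (k⁻¹ • W)) := by
      intro c hc h2
      have h3 : (pm c)⁻¹ • st oct0 = st oct0 := stab_inv (by rw [pm_smul_st (pres_valid hc), h2])
      have h4 := hh (k * (pm c)⁻¹ * k⁻¹) (M24.mul_mem (M24.mul_mem hk (M24.inv_mem (pm_mem_M24 hc))) (M24.inv_mem hk)) (by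
        rw [mul_smul, inv_smul_smul, mul_smul, h3])
      have h5 := IsWord.smul (M24.inv_mem hk) h4
      rw [smul_symmDiff, mul_smul, mul_smul, inv_smul_smul] at h5
      exact h5
    have := word_of_dat chkO gA_pres gB_pres (W := k⁻¹ • W) (key _ gA_pres gA_oct) (key _ gB_pres gB_oct)
    have h6 := IsWord.smul hk this
    rwa [smul_inv_smul] at h6
  have hD : ∀ k ∈ M24, (∀ σ ∈ M24, σ • (k • st dodU) = k • st dodU → IsWord (symmDiff (σ • W) W)) → IsWord W := by
    intro k hk hh
    have key : ∀ c, pres c = true → act c dodU = dodU → IsWord (symmDiff ((pm c)⁻¹ • (k⁻¹ • W)) (k⁻¹ • W)) := by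
      intro c hc h2
      have h3 : (pm c)⁻¹ • st dodU = st dodU := stab_inv (by rw [pm_smul_st (pres_valid hc), h2])
      have h4 := hh (k * (pm c)⁻¹ * k⁻¹) (M24.mul_mem (M24.mul_mem hk (M24.inv_mem (pm_mem_M24 hc))) (M24.inv_mem hk)) (by
        rw [mul_smul, inv_smul_smul, mul_smul, h3])
      have h5 := IsWord.smul (M24.inv_mem hk) h4
      rw [smul_symmDiff, mul_smul, mul_smul, inv_smul_smul] at h5
      exact h5
    have := word_of_dat chkD cU_pres cZ_pres' (W := k⁻¹ • W) (key _ cU_pres cU_dod) (key _ cZ_pres' cZ_dod)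
    have h6 := IsWord.smul hk this
    rwa [smul_inv_smul] at h6
  rcases hU.card with hc | hc | hc | hc | hc
  · rw [Finset.card_eq_zero] at hc
    subst hc
    exact hO 1 M24.one_mem (fun σ hσ _ => h σ hσ (by simp))
  · obtain ⟨k, hk, e⟩ := octads_transitive oct0_mem (mem_octads.2 ⟨hU, hc⟩)
    exact hO k hk (fun σ hσ hs => h σ hσ (by rw [← e]; exact hs))
  · obtain ⟨k, hk, e⟩ := dodecads_transitive dodU_mem (mem_dodecads.2 ⟨hU, hc⟩)
    exact hD k hk (fun σ hσ hs => h σ hσ (by rw [← e]; exact hs))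
  · have hc' : Uᶜ.card = 8 := by
      rw [Finset.card_compl, card_golayPt, hc]
    obtain ⟨k, hk, e⟩ := octads_transitive oct0_mem (mem_octads.2 ⟨hU.compl, hc'⟩)
    refine hO k hk (fun σ hσ hs => h σ hσ ?_)
    rw [e, smul_compl', compl_inj_iff] at hs
    exact hs
  · have hc' : U = Finset.univ := by
      rw [← Finset.card_eq_iff_eq_univ, hc, card_golayPt]
    subst hc'
    exact hO 1 M24.one_mem (fun σ hσ _ => h σ hσ (by simp))

theorem main5550 (u : (GolayPt → ZMod 2)) (hu : u ∈ golayCode) (w : (GolayPt → ZMod 2)) (hw : w ∉ golayCode) :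
    ∃ σ ∈ M24, (fun p => u (σ.symm p)) = u ∧ (fun p => w (σ.symm p)) - w ∉ golayCode := by
  by_contra hne
  push Not at hne
  apply hw
  rw [mem_golayCode_iff]
  have hsup : ∀ (v : GolayPt → ZMod 2) (σ : Equiv.Perm GolayPt), support₂ (fun p => v (σ.symm p)) = σ • support₂ v := by
    intro v σ
    ext p
    rw [mem_smul_iff]
    simp [support₂]
  refine no_fix (U := support₂ u) ((mem_golayCode_iff u).1 hu) (fun σ hσ hs => ?_)
  have h1 := hne σ hσ (support_inj (by rw [hsup, hs]))
  rw [mem_golayCode_iff] at h1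
  have e : support₂ ((fun p => w (σ.symm p)) - w) = symmDiff (σ • support₂ w) (support₂ w) := by
    rw [← hsup]
    ext p
    simp only [support₂, Finset.mem_symmDiff, Finset.mem_filter, Finset.mem_univ, true_and, Pi.sub_apply]
    generalize w (σ.symm p) = a
    generalize w p = b
    revert a b; decide
  rw [e] at h1
  exact h1

end Cfsg.Agent.Lib.L23
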