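import Cfsg.Agent.Lib.L23.Basic

/-!
The subgroup PSL(2,23) of the group of the length-24 code and its Borel subgroup: maximality.
-/

set_option autoImplicit false

namespace Cfsg.Agent.Lib.L23

open Cfsg Finset
open Cfsg.Agent.Lib.Golay Cfsg.Agent.Lib Cfsg.Agent.Lib.M22Sub
open scoped Pointwise

theorem mem_T_L : pm cT ∈ LL := Subgroup.subset_closure (by simp)
theorem mem_U_L : pm cU ∈ LL := Subgroup.subset_closure (by simp)
theorem mem_S_L : pm cS ∈ LL := Subgroup.subset_closure (by simp)

theorem B_le_L : BB ≤ LL := by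
  unfold BB
  rw [Subgroup.closure_le]
  rintro x (rfl | rfl)
  · exact mem_T_L
  · exact mem_U_L

theorem L_le_M24 : LL ≤ M24 := by
  unfold LL
  rw [Subgroup.closure_le]
  rintro x (rfl | rfl | rfl)
  · exact mem_M24_T
  · exact mem_M24_U
  · exact pm_mem_M24 cS_pres

/-- powers of the translation -/
theorem T_pow (j : ℕ) (hj : j < 23) : (pm cT ^ j) (pt 0) = pt j := by
  rw [← (pm_pwT hj).2, pm_pt (pm_pwT hj).1 (by norm_num)]
  have : ∀ j < 23, img (pwT j) 0 = j := by decide +kernel
  rw [this j hj]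

theorem orb_all {F : Subgroup (Equiv.Perm GolayPt)} (hL : LL ≤ F) : orbF F (pt 23) = Finset.univ := by
  apply Finset.eq_univ_of_forall
  intro p
  rw [mem_orbF]
  by_cases hp : ix p = 23
  · refine ⟨1, F.one_mem, ?_⟩
    rw [← hp, pt_ix]; rfl
  · have hlt : ix p < 23 := by have := ix_lt p; omega
    refine ⟨pm cT ^ (ix p) * pm cS, F.mul_mem (F.pow_mem (hL mem_T_L) _) (hL mem_S_L), ?_⟩
    rw [Equiv.Perm.mul_apply, pm_pt (pres_valid cS_pres) (by norm_num)]
    have : img cS 23 = 0 := by decide +kernel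
    rw [this, T_pow _ hlt, pt_ix]

theorem card_L_sup {F : Subgroup (Equiv.Perm GolayPt)} (hL : LL ≤ F) (hF : F ≤ M24) : Nat.card F = 6072 ∨ Nat.card F = 244823040 := by
  have h1 := card_orbF F (pt 23)
  rw [orb_all hL, Finset.card_univ, card_golayPt] at h1
  have h2 : Nat.card ↥(F ⊓ MulAction.stabilizer (Equiv.Perm GolayPt) (pt 23)) = 253 ∨
      Nat.card ↥(F ⊓ MulAction.stabilizer (Equiv.Perm GolayPt) (pt 23)) = 10200960 :=
    card_m23_sub (le_inf (B_le_L.trans hL) (B_le_m23.trans inf_le_right)) (inf_le_inf_right _ hF)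
  rcases h2 with h | h <;> rw [h] at h1 <;> omega

/-! ### the negation -/

def cN : ℕ := bld (fun i => if i = 23 then 23 else (23 - i) % 23)

theorem cN_valid : valid cN = true := by decide +kernel

theorem cN_cN : comp cN cN = idc := by decide +kernel

theorem NT : pm cN * pm cT * pm cN = (pm cT)⁻¹ := by
  have h : comp (comp cN cT) cN = pwT 22 := by decide +kernel
  rw [← pm_pwT22, ← h, pm_comp (by decide +kernel) cN_valid, pm_comp cN_valid (by decide +kernel)]

theorem NU : pm cN * pm cU * pm cN = pm cU := by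
  have h : comp (comp cN cU) cN = cU := by decide +kernel
  rw [← pm_comp cN_valid (by decide +kernel), ← pm_comp (by decide +kernel) cN_valid, h]

theorem NS : pm cN * pm cS * pm cN = pm cS := by
  have h : comp (comp cN cS) cN = cS := by decide +kernel
  rw [← pm_comp cN_valid (by decide +kernel), ← pm_comp (by decide +kernel) cN_valid, h]

theorem NN : pm cN * pm cN = 1 := by
  rw [← pm_comp cN_valid cN_valid, cN_cN, pm_idc]

theorem N_not_mem : pm cN ∉ M24 := by
  intro h
  have h0 : pm cN (pt 0) = pt 0 := by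
    rw [pm_pt cN_valid (by norm_num)]
    have : img cN 0 = 0 := by decide +kernel
    rw [this]
  have h1 : pm cN ≠ 1 := ne_one_of_moves cN_valid (by decide +kernel)
  have h2 := M22Sub.fix2 h NN h1 h0
  have h3 : (Finset.univ.filter fun x => pm cN x = x) = Finset.univ.filter (fun x => img cN (ix x) = ix x) := by
    apply Finset.filter_congr
    intro x _
    rw [← ix_pm cN_valid]
    exact ⟨fun h => by rw [h], fun h => ix_inj h⟩
  rw [h3] at h2
  exact absurd h2 (by decide +kernel)

theorem L_conj : LL.map (MulAut.conj (pm cN)).toMonoidHom = LL := by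
  have hinv : (pm cN)⁻¹ = pm cN := by rw [inv_eq_iff_mul_eq_one, NN]
  have e : ∀ x, (MulAut.conj (pm cN)).toMonoidHom x = pm cN * x * pm cN := by
    intro x
    show pm cN * x * (pm cN)⁻¹ = _
    rw [hinv]
  have h1 : LL.map (MulAut.conj (pm cN)).toMonoidHom ≤ LL := by
    rw [Subgroup.map_le_iff_le_comap]
    conv_lhs => unfold LL
    rw [Subgroup.closure_le]
    rintro x (rfl | rfl | rfl)
    · show _ ∈ LL
      rw [e, NT]; exact LL.inv_mem mem_T_L
    · show _ ∈ LL
      rw [e, NU]; exact mem_U_L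
    · show _ ∈ LL
      rw [e, NS]; exact mem_S_L
  apply Subgroup.eq_of_le_of_card_ge h1
  rw [Subgroup.card_map_of_injective (MulAut.conj (pm cN)).injective]

theorem L_ne : LL ≠ M24 := by
  intro hLM
  have hconj := L_conj
  rw [hLM] at hconj
  have hmem : ∀ x ∈ M24, pm cN * x * (pm cN)⁻¹ ∈ M24 := by
    intro x hx
    rw [← hconj]
    exact ⟨x, hx, rfl⟩
  let f : M24 →* M24 := {
    toFun := fun x => ⟨pm cN * x * (pm cN)⁻¹, hmem x x.2⟩
    map_one' := Subtype.ext (by simp)
    map_mul' := fun x y => Subtype.ext (by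
      show pm cN * (x * y : Equiv.Perm GolayPt) * (pm cN)⁻¹ = (pm cN * x * (pm cN)⁻¹) * (pm cN * y * (pm cN)⁻¹)
      group) }
  have hinj : Function.Injective f := by
    intro x y hxy
    have h : pm cN * (x : Equiv.Perm GolayPt) * (pm cN)⁻¹ = pm cN * y * (pm cN)⁻¹ := congrArg Subtype.val hxy
    exact Subtype.ext (mul_left_cancel (mul_right_cancel h))
  let α : MulAut M24 := MulEquiv.ofBijective f (Finite.injective_iff_bijective.1 hinj)
  have hsub : Subsingleton (Out ↥M24) := (Nat.card_eq_one_iff_unique.1 out_M24).1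
  have h1 : (QuotientGroup.mk α : Out ↥M24) = 1 := Subsingleton.elim _ _
  rw [QuotientGroup.eq_one_iff] at h1
  obtain ⟨c, hc⟩ := h1
  have h2 : pm cN * pm cT * (pm cN)⁻¹ = (c : Equiv.Perm GolayPt) * pm cT * (c : Equiv.Perm GolayPt)⁻¹ := by
    have := congrArg (fun φ : MulAut M24 => ((φ ⟨pm cT, mem_M24_T⟩ : M24) : Equiv.Perm GolayPt)) hc
    exact this.symm
  have h3 : ((c : Equiv.Perm GolayPt)⁻¹ * pm cN) * pm cT = pm cT * ((c : Equiv.Perm GolayPt)⁻¹ * pm cN) := by
    calc ((c : Equiv.Perm GolayPt)⁻¹ * pm cN) * pm cT = (c : Equiv.Perm GolayPt)⁻¹ * (pm cN * pm cT * (pm cN)⁻¹) * pm cN := by group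
      _ = (c : Equiv.Perm GolayPt)⁻¹ * ((c : Equiv.Perm GolayPt) * pm cT * (c : Equiv.Perm GolayPt)⁻¹) * pm cN := by rw [h2]
      _ = _ := by group
  have h4 := cent_T h3
  have h5 : (c : Equiv.Perm GolayPt)⁻¹ * pm cN ∈ M24 := by
    have : Subgroup.zpowers (pm cT) ≤ M24 := by rw [Subgroup.zpowers_le]; exact mem_M24_T
    exact this h4
  have h6 : pm cN ∈ M24 := by
    have := M24.mul_mem c.2 h5
    rwa [mul_inv_cancel_left] at this
  exact N_not_mem h6

theorem card_L : Nat.card LL = 6072 := by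
  rcases card_L_sup le_rfl L_le_M24 with h | h
  · exact h
  · exact absurd (Subgroup.eq_of_le_of_card_ge L_le_M24 (by rw [h, card_M24])) L_ne

/-! ### the closures in the statement -/

def SQ : Set (Equiv.Perm GolayPt) := {g : Equiv.Perm GolayPt | ∃ u : (ZMod 23)ˣ, IsSquare u ∧ g = Equiv.optionCongr (Units.mulLeft u)}

def u0 : (ZMod 23)ˣ := Units.mk 2 12 (by decide) (by decide)

theorem sq_pow : ∀ u : (ZMod 23)ˣ, IsSquare u → ∃ k < 11, u = u0 ^ k := by
  have : ∀ v : (ZMod 23)ˣ, ∃ k < 11, v * v = u0 ^ k := by decide +kernel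
  rintro u ⟨v, rfl⟩
  exact this v

theorem optC_pow (u : (ZMod 23)ˣ) (k : ℕ) :
    (Equiv.optionCongr (Units.mulLeft (u ^ k)) : Equiv.Perm GolayPt) = (Equiv.optionCongr (Units.mulLeft u) : Equiv.Perm GolayPt) ^ k := by
  induction k with
  | zero =>
    ext p : 1
    rcases p with _ | x
    · rfl
    · simp [Equiv.optionCongr]
  | succ k ih =>
    rw [pow_succ (Equiv.optionCongr (Units.mulLeft u) : Equiv.Perm GolayPt), ← ih]
    ext p : 1
    rcases p with _ | x
    · rfl
    · rw [Equiv.Perm.mul_apply]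
      simp [Equiv.optionCongr, pow_succ, mul_assoc]

theorem mem_SQ_U : pm cU ∈ SQ := by
  refine ⟨u0, ⟨Units.mk 5 14 (by decide) (by decide), by decide +kernel⟩, (U_eq u0 rfl).symm⟩

theorem SQ_sub {F : Subgroup (Equiv.Perm GolayPt)} (h : pm cU ∈ F) : SQ ⊆ (F : Set (Equiv.Perm GolayPt)) := by
  rintro g ⟨u, hu, rfl⟩
  obtain ⟨k, _, rfl⟩ := sq_pow u hu
  rw [SetLike.mem_coe, optC_pow, U_eq u0 rfl]
  exact F.pow_mem h k

theorem clB : Subgroup.closure ({Equiv.optionCongr (Equiv.addRight (1 : ZMod 23))} ∪ SQ) = BB := by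
  apply le_antisymm
  · rw [Subgroup.closure_le]
    apply Set.union_subset
    · rw [Set.singleton_subset_iff, T_eq]; exact mem_T_B
    · exact SQ_sub mem_U_B
  · unfold BB
    rw [Subgroup.closure_le]
    rintro x (rfl | rfl)
    · rw [← T_eq]; exact Subgroup.subset_closure (Or.inl rfl)
    · exact Subgroup.subset_closure (Or.inr mem_SQ_U)

theorem clL : Subgroup.closure ({Equiv.optionCongr (Equiv.addRight (1 : ZMod 23)), Cfsg.projInv} ∪ SQ) = LL := by
  apply le_antisymm
  · rw [Subgroup.closure_le]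
    apply Set.union_subset
    · rintro x (rfl | rfl)
      · rw [T_eq]; exact mem_T_L
      · rw [S_eq]; exact mem_S_L
    · exact SQ_sub mem_U_L
  · unfold LL
    rw [Subgroup.closure_le]
    rintro x (rfl | rfl | rfl)
    · rw [← T_eq]; exact Subgroup.subset_closure (Or.inl (Or.inl rfl))
    · exact Subgroup.subset_closure (Or.inr mem_SQ_U)
    · rw [← S_eq]; exact Subgroup.subset_closure (Or.inl (Or.inr rfl))

theorem coatomL : IsCoatom (LL.subgroupOf M24) := by
  constructor
  · intro h
    rw [Subgroup.subgroupOf_eq_top] at h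
    exact L_ne (le_antisymm L_le_M24 h)
  · intro K hK
    have h1 : LL ≤ K.map M24.subtype := by
      rw [← Subgroup.map_subgroupOf_eq_of_le L_le_M24]
      exact Subgroup.map_mono hK.le
    have hc : Nat.card (K.map M24.subtype) = Nat.card K := Subgroup.card_map_of_injective (Subgroup.subtype_injective _)
    rcases card_L_sup h1 (Subgroup.map_subtype_le K) with h | h
    · exfalso
      apply hK.ne
      apply Subgroup.eq_of_le_of_card_ge hK.le
      rw [← hc, h, Nat.card_congr (Subgroup.subgroupOfEquivOfLe L_le_M24).toEquiv, card_L]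
    · apply Subgroup.eq_top_of_card_eq
      rw [← hc, h, card_M24]

theorem coatomB : IsCoatom ((BB.subgroupOf M24).subgroupOf (MulAction.stabilizer M24 (pt 23))) := by
  set St : Subgroup M24 := MulAction.stabilizer M24 (pt 23) with hSt
  have hmap : St.map M24.subtype = m23 := by
    ext g
    constructor
    · rintro ⟨x, hx, rfl⟩
      exact ⟨x.2, hx⟩
    · rintro ⟨h1, h2⟩
      exact ⟨⟨g, h1⟩, h2, rfl⟩
  have hle : BB.subgroupOf M24 ≤ St := by
    intro x hx
    exact (B_le_m23 hx).2
  have hcB : Nat.card ((BB.subgroupOf M24).subgroupOf St) = 253 := by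
    rw [Nat.card_congr (Subgroup.subgroupOfEquivOfLe hle).toEquiv, Nat.card_congr (Subgroup.subgroupOfEquivOfLe B_le_M24).toEquiv,
      card_B]
  have hcS : Nat.card St = 10200960 := by
    rw [← Subgroup.card_map_of_injective (K := St) (Subgroup.subtype_injective M24), hmap, card_m23]
  constructor
  · intro h
    have := congrArg (fun K : Subgroup St => Nat.card K) h
    change Nat.card ((BB.subgroupOf M24).subgroupOf St) = Nat.card (⊤ : Subgroup St) at this
    rw [hcB, Subgroup.card_top, hcS] at this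
    omega
  · intro K hK
    set F : Subgroup (Equiv.Perm GolayPt) := (K.map St.subtype).map M24.subtype with hF
    have hcF : Nat.card F = Nat.card K := by
      rw [hF, Subgroup.card_map_of_injective (Subgroup.subtype_injective _), Subgroup.card_map_of_injective (Subgroup.subtype_injective _)]
    have h1 : BB ≤ F := by
      have e1 : BB = (((BB.subgroupOf M24).subgroupOf St).map St.subtype).map M24.subtype := by
        rw [Subgroup.map_subgroupOf_eq_of_le hle, Subgroup.map_subgroupOf_eq_of_le B_le_M24]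
      rw [e1]
      exact Subgroup.map_mono (Subgroup.map_mono hK.le)
    have h2 : F ≤ m23 := by
      rw [← hmap]
      exact Subgroup.map_mono (Subgroup.map_subtype_le K)
    rcases card_m23_sub h1 h2 with h | h
    · exfalso
      apply hK.ne
      apply Subgroup.eq_of_le_of_card_ge hK.le
      rw [← hcF, h, hcB]
    · apply Subgroup.eq_top_of_card_eq
      rw [← hcF, h, hcS]

end Cfsg.Agent.Lib.L23
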