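import Cfsg.Agent.Lib.Golay.LeechMod2
import Cfsg.Agent.Lib.Golay.LeechShape2
import Cfsg.Agent.Lib.Golay.Misc

/-!
The rank-24 lattice is generated by its minimal vectors.
-/

set_option autoImplicit false

namespace Cfsg.Agent.Lib.MinGen

open Cfsg Finset
open Cfsg.Agent.Lib.Golay Cfsg.Agent.Lib

abbrev CC : AddSubgroup Vec := AddSubgroup.closure {x : GolayPt → ℤ | x ∈ leechLattice ∧ sqNorm x = 32}

theorem mem_CC {x : Vec} (h : x ∈ leechLattice) (hn : sqNorm x = 32) : x ∈ CC := AddSubgroup.subset_closure ⟨h, hn⟩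

theorem norm_rO' (j : GolayPt) : sqNorm (rO j) = 32 := by
  have h1 : ∀ p, rO j p ^ 2 = 1 + (if p = j then 8 else 0) := by
    intro p; unfold rO; split_ifs <;> norm_num
  unfold sqNorm
  rw [Finset.sum_congr rfl (fun p _ => h1 p), Finset.sum_add_distrib, Finset.sum_ite_eq' Finset.univ j]
  simp only [Finset.mem_univ, if_true, Finset.sum_const, Finset.card_univ, card_golayPt]
  norm_num

theorem sg8_CC (i : GolayPt) : sg i 8 ∈ CC := by
  obtain ⟨j, hj⟩ : ∃ j : GolayPt, i ≠ j := by
    have : ∀ i : GolayPt, ∃ j, i ≠ j := by decide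
    exact this i
  have e1 : sg i 8 = (sg i 4 + sg j 4) + (sg i 4 + sg j (-4)) := by
    ext k
    simp only [Pi.add_apply, sg]
    split_ifs <;> norm_num
  rw [e1]
  exact add_mem (mem_CC (sg_add_mem hj (Or.inl rfl) (Or.inl rfl)) (sqNorm_sg_add hj (Or.inl rfl) (Or.inl rfl)))
    (mem_CC (sg_add_mem hj (Or.inl rfl) (Or.inr rfl)) (sqNorm_sg_add hj (Or.inl rfl) (Or.inr rfl)))

/-- vectors with coordinates divisible by four -/
theorem four_CC {x : Vec} (h4 : ∀ i, x i % 4 = 0) (h8 : (∑ i, x i) % 8 = 0) : x ∈ CC := by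
  have hz : ∀ i, x i = 4 * (x i / 4) := fun i => by have := h4 i; omega
  have hsum : ∑ i, x i = 4 * ∑ i, x i / 4 := by
    rw [Finset.mul_sum]; exact Finset.sum_congr rfl (fun i _ => hz i)
  obtain ⟨m, hm⟩ : ∃ m, ∑ i, x i / 4 = 2 * m := ⟨(∑ i, x i / 4) / 2, by omega⟩
  have e : x = (∑ i, (x i / 4) • (sg i 4 + sg pa (-4))) + m • sg pa 8 := by
    ext k
    rw [Pi.add_apply, Finset.sum_apply, Pi.smul_apply, smul_eq_mul]
    have h1 : ∀ i, ((x i / 4) • (sg i 4 + sg pa (-4))) k = (if k = i then x i else 0) + (if k = pa then -4 else 0) * (x i / 4) := by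
      intro i
      rw [Pi.smul_apply, smul_eq_mul, Pi.add_apply]
      unfold sg
      by_cases hki : k = i
      · rw [if_pos hki, if_pos hki]
        have := hz i
        by_cases hkp : k = pa
        · rw [if_pos hkp]; linarith
        · rw [if_neg hkp]; linarith
      · rw [if_neg hki, if_neg hki]
        by_cases hkp : k = pa
        · rw [if_pos hkp]; ring
        · rw [if_neg hkp]; ring
    rw [Finset.sum_congr rfl (fun i _ => h1 i), Finset.sum_add_distrib, Finset.sum_ite_eq, ← Finset.mul_sum, hm]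
    simp only [Finset.mem_univ, if_true]
    unfold sg
    by_cases hkp : k = pa
    · rw [if_pos hkp, if_pos hkp]; ring
    · rw [if_neg hkp, if_neg hkp]; ring
  rw [e]
  refine add_mem (sum_mem (fun i _ => zsmul_mem ?_ _)) (zsmul_mem (sg8_CC pa) _)
  by_cases hi : i = pa
  · subst hi
    have : sg pa 4 + sg pa (-4) = 0 := by
      ext k; simp only [Pi.add_apply, sg]; split_ifs <;> norm_num
    rw [this]; exact zero_mem _
  · exact mem_CC (sg_add_mem hi (Or.inl rfl) (Or.inr rfl)) (sqNorm_sg_add hi (Or.inl rfl) (Or.inr rfl))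

theorem word_CC {w : Finset GolayPt} (hw : IsWord w) : ∃ y ∈ CC, InL y 0 ∧ cls y 2 = w := by
  refine word_induction (P := fun w => ∃ y ∈ CC, InL y 0 ∧ cls y 2 = w) ?_ ?_ ?_ hw
  · refine ⟨0, zero_mem _, InL.zero, ?_⟩
    ext i; rw [mem_cls]; simp
  · rintro s t ⟨y, hy, hyL, hys⟩ ⟨z, hz, hzL, hzt⟩
    refine ⟨y + z, add_mem hy hz, by simpa using hyL.add hzL, ?_⟩
    rw [← hys, ← hzt]
    ext i
    rw [Finset.mem_symmDiff, mem_cls, mem_cls, mem_cls, Pi.add_apply]
    have := hyL.1 i; have := hzL.1 i; omega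
  · intro i hi
    have h1 := rows_octads i hi
    have hO : st (comb (2 ^ i)) ∈ octads := (st_mem_octads (comb_lt _)).2 h1
    refine ⟨r8 (st (comb (2 ^ i))), mem_CC (r8_mem hO) ?_, ?_, ?_⟩
    · rw [norm_r8_word, (mem_octads.1 hO).2]; norm_num
    · rcases mem_leech'.1 (r8_mem hO) with h | h
      · exact h
      · exfalso
        have := h.1 pa
        unfold r8 at this
        split_ifs at this <;> omega
    · ext p
      rw [mem_cls]
      unfold r8
      split_ifs with h <;> simp [h]

theorem even_CC {x : Vec} (h : InL x 0) : x ∈ CC := by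
  obtain ⟨y, hy, hyL, hyc⟩ := word_CC h.2.2
  have h1 : InL (x - y) 0 := by
    have := h.add hyL.neg
    rw [← sub_eq_add_neg] at this
    simpa using this
  have h2 : ∀ i, (x - y) i % 4 = 0 := by
    intro i
    rw [Pi.sub_apply]
    have e1 := h.1 i
    have e2 := hyL.1 i
    have e3 : i ∈ cls y 2 ↔ i ∈ cls x (0 + 2) := by rw [hyc]
    rw [mem_cls, mem_cls] at e3
    omega
  have h3 : (∑ i, (x - y) i) % 8 = 0 := by
    have := h1.2.1; omega
  have h4 := add_mem (four_CC h2 h3) hy
  rwa [sub_add_cancel] at h4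

theorem result1567 : AddSubgroup.closure {x : GolayPt → ℤ | x ∈ leechLattice ∧ sqNorm x = 32} = leechLattice := by
  apply le_antisymm
  · rw [AddSubgroup.closure_le]
    rintro x ⟨h, _⟩; exact h
  · intro x hx
    rcases mem_leech'.1 hx with h | h
    · exact even_CC h
    · have hr : InL (rO pa) 1 := by
        rcases mem_leech'.1 (rO_mem pa) with h | h
        · exfalso
          have := h.1 pb
          unfold rO at this
          split_ifs at this <;> omega
        · exact h
      have h1 : InL (x - rO pa) 0 := by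
        have := h.add hr.neg
        rw [← sub_eq_add_neg] at this
        simpa using this
      have h2 := add_mem (even_CC h1) (mem_CC (rO_mem pa) (norm_rO' pa))
      rwa [sub_add_cancel] at h2

end Cfsg.Agent.Lib.MinGen
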