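import Cfsg.Agent.Lib.Golay.LeechMod2
import Cfsg.Agent.Lib.Golay.LeechShape2
import Cfsg.Prelude.Def_Spor_Conway
import Cfsg.Agent.Lib.L23.GLEmb

/-!
The representation of the second Conway group of degree 23 over the field with 13 elements.
-/

set_option autoImplicit false

namespace Cfsg.Agent.Lib.Rep13

open Cfsg Finset
open Cfsg.Agent.Lib.Golay Cfsg.Agent.Lib

abbrev A := ZMod 13
abbrev VM := GolayPt → ZMod 13

/-- reduction -/
def red (x : Vec) : VM := fun i => (x i : ZMod 13)

theorem red_apply (x : Vec) (i : GolayPt) : red x i = (x i : ZMod 13) := rfl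

/-- the matrix of an automorphism -/
noncomputable def M (g : Co0) : Matrix GolayPt GolayPt (ZMod 13) := fun j i => 5 * ((app g (sg i 8) j : ℤ) : ZMod 13)

noncomputable def lin (g : Co0) : VM →ₗ[ZMod 13] VM := (M g).mulVecLin

theorem lin_red (g : Co0) {x : Vec} (hx : x ∈ leechLattice) : lin g (red x) = red (app g x) := by
  have h1 : (8 : ℤ) • app g x = ∑ i, x i • app g (sg i 8) := by
    rw [← app_zsmul g hx, eight_smul, app_sum g _ _ (fun i _ => zsmul_mem (sg8_mem i) _)]
    exact sum_congr rfl (fun i _ => app_zsmul g (sg8_mem i) _)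
  ext j
  have h2 := congrFun h1 j
  rw [Pi.smul_apply, Finset.sum_apply, smul_eq_mul] at h2
  simp only [Pi.smul_apply, smul_eq_mul] at h2
  have h3 : (8 : ZMod 13) * ((app g x j : ℤ) : ZMod 13) = ∑ i, (x i : ZMod 13) * ((app g (sg i 8) j : ℤ) : ZMod 13) := by
    have := congrArg (fun z : ℤ => (z : ZMod 13)) h2
    push_cast at this
    exact this
  show (M g).mulVec (red x) j = _
  rw [Matrix.mulVec, dotProduct]
  simp only [M, red]
  calc ∑ i, 5 * ((app g (sg i 8) j : ℤ) : ZMod 13) * (x i : ZMod 13)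
      = 5 * ∑ i, (x i : ZMod 13) * ((app g (sg i 8) j : ℤ) : ZMod 13) := by
        rw [Finset.mul_sum]; exact sum_congr rfl (fun i _ => by ring)
    _ = 5 * (8 * ((app g x j : ℤ) : ZMod 13)) := by rw [h3]
    _ = ((5 * 8 : ZMod 13)) * ((app g x j : ℤ) : ZMod 13) := by ring
    _ = _ := by
        have : (5 * 8 : ZMod 13) = 1 := by decide
        rw [this, one_mul]

theorem red_surj (v : VM) : ∃ x ∈ leechLattice, red x = v := by
  refine ⟨∑ i, ((5 * v i).val : ℤ) • sg i 8, sum_mem (fun i _ => zsmul_mem (sg8_mem i) _), ?_⟩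
  ext j
  rw [red_apply, Finset.sum_apply]
  have : ∀ i, (((5 * v i).val : ℤ) • sg i 8) j = if j = i then 8 * ((5 * v j).val : ℤ) else 0 := by
    intro i
    rw [Pi.smul_apply, smul_eq_mul]
    unfold sg
    by_cases h : j = i
    · subst h; rw [if_pos rfl, if_pos rfl]; ring
    · rw [if_neg h, if_neg h, mul_zero]
  rw [Finset.sum_congr rfl (fun i _ => this i), Finset.sum_ite_eq]
  simp only [Finset.mem_univ, if_true]
  push_cast
  rw [ZMod.natCast_val, ZMod.cast_id]
  have : (8 * (5 * v j) : ZMod 13) = (8 * 5) * v j := by ring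
  rw [this]
  have : (8 * 5 : ZMod 13) = 1 := by decide
  rw [this, one_mul]

theorem lin_mul (g h : Co0) : lin (g * h) = lin g * lin h := by
  apply LinearMap.ext
  intro v
  obtain ⟨x, hx, rfl⟩ := red_surj v
  rw [Module.End.mul_apply, lin_red _ hx, lin_red _ hx, lin_red _ (app_mem h hx), app_mul]

theorem lin_one : lin 1 = 1 := by
  apply LinearMap.ext
  intro v
  obtain ⟨x, hx, rfl⟩ := red_surj v
  rw [lin_red _ hx, app_one]; rfl

/-- the functional -/
noncomputable def phi : VM →ₗ[ZMod 13] ZMod 13 where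
  toFun v := ∑ i, v i * (Spor.vecU i : ZMod 13)
  map_add' v w := by
    rw [← Finset.sum_add_distrib]
    exact sum_congr rfl (fun i _ => by rw [Pi.add_apply]; ring)
  map_smul' c v := by
    rw [RingHom.id_apply, smul_eq_mul, Finset.mul_sum]
    exact sum_congr rfl (fun i _ => by rw [Pi.smul_apply, smul_eq_mul]; ring)

theorem phi_red (x : Vec) : phi (red x) = ((dotInt x Spor.vecU : ℤ) : ZMod 13) := by
  show ∑ i, (x i : ZMod 13) * (Spor.vecU i : ZMod 13) = _
  unfold dotInt
  push_cast
  rfl

theorem u_mem : Spor.vecU ∈ leechLattice := Spor.leechU.2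

theorem norm_u : dotInt Spor.vecU Spor.vecU = 32 := by decide +kernel

abbrev G2 := Spor.Co2

noncomputable def inc : G2 →* Co0 := Subgroup.inclusion inf_le_left

theorem inc_fix (g : G2) : app (inc g) Spor.vecU = Spor.vecU := by
  have h : (g : Equiv.Perm leechLattice) • Spor.leechU = Spor.leechU := g.2.2
  have := smul_eq_iff_app (g := inc g) (v := Spor.leechU) (w := Spor.leechU)
  exact this.1 h

theorem phi_lin (g : G2) (v : VM) : phi (lin (inc g) v) = phi v := by
  obtain ⟨x, hx, rfl⟩ := red_surj v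
  rw [lin_red _ hx, phi_red, phi_red]
  have h := app_dot (inc g) hx u_mem
  rw [inc_fix] at h
  rw [h]

noncomputable abbrev W : Submodule (ZMod 13) VM := LinearMap.ker phi

theorem pres_W (g : G2) : ∀ v ∈ W, lin (inc g) v ∈ W := by
  intro v hv
  rw [LinearMap.mem_ker] at hv ⊢
  rw [phi_lin, hv]

noncomputable def rho : G2 →* Module.End (ZMod 13) W where
  toFun g := (lin (inc g)).restrict (pres_W g)
  map_one' := by
    apply LinearMap.ext
    intro v
    apply Subtype.ext
    rw [LinearMap.coe_restrict_apply, map_one, lin_one]; rfl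
  map_mul' g h := by
    apply LinearMap.ext
    intro v
    apply Subtype.ext
    rw [Module.End.mul_apply, LinearMap.coe_restrict_apply, LinearMap.coe_restrict_apply, LinearMap.coe_restrict_apply, map_mul, lin_mul]
    rfl

theorem phi_u : phi (red Spor.vecU) = 6 := by
  rw [phi_red, norm_u]; decide

theorem e66 : (11 * 6 : ZMod 13) = 1 := by decide

theorem phi_surj : Function.Surjective phi := by
  intro c
  refine ⟨(11 * c) • red Spor.vecU, ?_⟩
  rw [map_smul, phi_u, smul_eq_mul]
  have : (11 * c * 6 : ZMod 13) = (11 * 6) * c := by ring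
  rw [this, e66, one_mul]

theorem lin_eq_one {g : G2} (h : rho g = 1) : lin (inc g) = 1 := by
  have hW : ∀ v ∈ W, lin (inc g) v = v := by
    intro v hv
    have := congrArg (fun f : Module.End (ZMod 13) W => ((f ⟨v, hv⟩ : W) : VM)) h
    exact this
  have hu : lin (inc g) (red Spor.vecU) = red Spor.vecU := by rw [lin_red _ u_mem, inc_fix]
  apply LinearMap.ext
  intro v
  have h1 : v - (11 * phi v) • red Spor.vecU ∈ W := by
    rw [LinearMap.mem_ker, map_sub, map_smul, phi_u, smul_eq_mul]
    generalize phi v = c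
    revert c; decide
  have h2 := hW _ h1
  rw [map_sub, map_smul, hu] at h2
  exact sub_left_injective h2

theorem app_eq_of_lin {g : Co0} (h : lin g = 1) {x : Vec} (hx : x ∈ leechLattice) (hn : sqNorm x = 32) : app g x = x := by
  have h1 : red (app g x) = red x := by rw [← lin_red g hx, h]; rfl
  have hn' : sqNorm (app g x) = 32 := by rw [app_norm g hx, hn]
  have h2 : sqNorm (app g x - x) ≤ 128 := by
    have h3 := sqNorm_sub (app g x) x
    have h4 := sqNorm_add (app g x) x
    have h5 := sqNorm_nonneg (app g x + x)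
    rw [hn, hn'] at h3 h4
    omega
  by_contra hne
  have h6 : ∃ j, app g x j ≠ x j := by
    by_contra hc
    push Not at hc
    exact hne (funext hc)
  obtain ⟨j, hj⟩ := h6
  have h7 : (13 : ℤ) ∣ app g x j - x j := by
    have := congrFun h1 j
    rw [red_apply, red_apply] at this
    have h8 := (ZMod.intCast_eq_intCast_iff_dvd_sub _ _ 13).1 this.symm
    exact_mod_cast h8
  have h9 : (app g x j - x j) ^ 2 ≤ sqNorm (app g x - x) := by
    unfold sqNorm
    exact Finset.single_le_sum (f := fun i => (app g x - x) i ^ 2) (fun i _ => sq_nonneg _) (Finset.mem_univ j)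
  obtain ⟨c, hc⟩ := h7
  have hc0 : c ≠ 0 := by
    rintro rfl
    rw [mul_zero] at hc
    exact hj (by linarith)
  have hc2 : 1 ≤ c ^ 2 := by
    have : 0 < c ^ 2 := by positivity
    omega
  rw [hc] at h9
  nlinarith

theorem eq_one_of_lin {g : Co0} (h : lin g = 1) : g = 1 := by
  have h8 : ∀ i, app g (sg i 8) = (1 : ℤ) • sg i 8 := by
    intro i
    obtain ⟨j, hj⟩ : ∃ j : GolayPt, i ≠ j := by
      have : ∀ i : GolayPt, ∃ j, i ≠ j := by decide
      exact this i
    have e1 : sg i 8 = (sg i 4 + sg j 4) + (sg i 4 + sg j (-4)) := by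
      ext k
      simp only [Pi.add_apply, sg]
      split_ifs <;> norm_num
    rw [one_smul, e1, app_add g (sg_add_mem hj (Or.inl rfl) (Or.inl rfl)) (sg_add_mem hj (Or.inl rfl) (Or.inr rfl)),
      app_eq_of_lin h (sg_add_mem hj (Or.inl rfl) (Or.inl rfl)) (sqNorm_sg_add hj (Or.inl rfl) (Or.inl rfl)),
      app_eq_of_lin h (sg_add_mem hj (Or.inl rfl) (Or.inr rfl)) (sqNorm_sg_add hj (Or.inl rfl) (Or.inr rfl))]
  apply ext_app
  intro x hx
  rw [scalar_of_frame h8 hx, one_smul, app_one]

theorem rho_inj {g : G2} (h : rho g = 1) : g = 1 := by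
  have h1 := eq_one_of_lin (lin_eq_one h)
  have h2 : Function.Injective inc := Subgroup.inclusion_injective _
  exact h2 (by rw [h1, map_one])

end Cfsg.Agent.Lib.Rep13
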