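import Cfsg.Agent.Lib.L23.Rep13

/-!
The representation of the second Conway group of degree 23 over the field with 13 elements: the statement.
-/

set_option autoImplicit false

namespace Cfsg.Agent.Lib.Rep13

open Cfsg
open Cfsg.Agent.Lib.Golay Cfsg.Agent.Lib

instance fact13 : Fact (Nat.Prime 13) := ⟨by norm_num⟩

set_option maxHeartbeats 1000000 in
theorem exists_rep : ∃ f : ↥Spor.Co2 →* GL (Fin 23) (ZMod 13), Function.Injective f :=
  glEmb' (K := ZMod 13) (ι := GolayPt) (G := ↥Spor.Co2) (n := 23) card_golayPt phi phi_surj rho (fun _ h => rho_inj h)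

end Cfsg.Agent.Lib.Rep13
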